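import Cfsg.Agent.Lib.ToddCox.Suz1782.TP0
set_option autoImplicit false
set_option maxRecDepth 100000
namespace Cfsg.Agent.Lib.ToddCox.Suz1782
theorem allPts (i : ℕ) (hi : i < 1782) : chkAll i = true := by
  have hk : i / 1024 < 2 := by omega
  have key : ∀ j, j < 2 → allBits chkAll 10 (j * 2 ^ 10) = true := by
    intro j hj
    interval_cases j
    · exact a0
    · exact a1
  
  exact allBits_spec (key _ hk) i (Nat.div_mul_le_self i (2 ^ 10)) (by
    have := Nat.div_add_mod i (2 ^ 10)
    have h3 := Nat.mod_lt i (show 2 ^ 10 > 0 by positivity)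
    rw [mul_comm] at this
    omega)
end Cfsg.Agent.Lib.ToddCox.Suz1782
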