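import Cfsg.Agent.Lib.ToddCox.Suz1782.Tab
set_option autoImplicit false
set_option maxRecDepth 100000
namespace Cfsg.Agent.Lib.ToddCox.Suz1782
theorem a0 : allBits chkAll 10 0 = true := by decide +kernel
theorem a1 : allBits chkAll 10 1024 = true := by decide +kernel
theorem bk0 : allBits (fun i => bif (and (Nat.ble 0 i) (Nat.blt i 1)) then chkBlockPt tab Sw 0 1 i (pr i) else true) 11 0 = true := by decide +kernel
theorem bk1 : allBits (fun i => bif (and (Nat.ble 1 i) (Nat.blt i 1366)) then chkBlockPt tab Sw 1 1366 i (pr i) else true) 11 0 = true := by decide +kernel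
theorem bk2 : allBits (fun i => bif (and (Nat.ble 1366 i) (Nat.blt i 1782)) then chkBlockPt tab Sw 1366 1782 i (pr i) else true) 11 0 = true := by decide +kernel
end Cfsg.Agent.Lib.ToddCox.Suz1782
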